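/-
helper40: the subgroup of the presented group Fi22 generated by `b, …, i` is isomorphic to the simple
orthogonal group of dimension seven over the field with three elements.
-/
import Cfsg.Agent.Lib.Helper40.O7.Beta7
import Cfsg.Agent.Lib.Helper40.Fi.F22Main
import Cfsg.Agent.Lib.Helper40.PresEquiv
import Cfsg.Agent.S1685
import Cfsg.Agent.S0292

set_option autoImplicit false
set_option maxRecDepth 100000

namespace Cfsg.Agent.Lib.Helper40.O7

open Cfsg.Agent.Lib.Helper40.PE Cfsg.Agent.Lib.Helper5 Cfsg.Agent.Lib.Helper44 Matrix QuadraticMap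

/-- the commutator subgroup of the orthogonal group -/
abbrev W : Type := ↥(Cfsg.Omega (ZMod 3) ⇑QF)

/-- the target group -/
abbrev T : Type := W ⧸ Subgroup.center W

/-- the subgroup -/
abbrev L : Subgroup Cfsg.Spor.Fi22 := Hs F22.s F22P14080.Sw

theorem card_T : Nat.card T = 4585351680 := by
  have h := Cfsg.Agent.S0292.result (F := ZMod 3) (q := 3) (ZMod.card 3) (by decide) 3 (by norm_num)
  have e : (3 : ℕ) ^ (3 ^ 2) * ∏ i ∈ Finset.range 3, (3 ^ (2 * (i + 1)) - 1) = 9170703360 := by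
    decide +kernel
  rw [e, ← oddQF_coe] at h
  have h' : 2 * Nat.card T = 9170703360 := h
  omega

theorem card_L : Nat.card L = 4585351680 := by
  have h := L.card_mul_index
  rw [Cfsg.Agent.S1685.main, F22M.card_eq] at h
  generalize Nat.card L = c at h ⊢
  omega

/-- the action on vectors -/
def mv (u : W) (x : V7) : V7 := u.1.1.1 *ᵥ x

theorem mv_mul (a b : W) (x : V7) : mv (a * b) x = mv a (mv b x) := by
  unfold mv
  rw [Matrix.mulVec_mulVec]
  rfl

theorem mv_one (x : V7) : mv 1 x = x := by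
  unfold mv
  exact Matrix.one_mulVec x

theorem mv_smul (a : W) (c : ZMod 3) (x : V7) : mv a (c • x) = c • mv a x :=
  Matrix.mulVec_smul _ _ _

/-- the set of points -/
def I : Set ℕ := {q | q < 3510 ∧ cdT.get q ≠ 0}

/-- the labelling -/
noncomputable def β (q : ℕ) : V7 := dec (Nat.pred (cdT.get q))

open Classical in
/-- products of reflections in the commutator subgroup -/
noncomputable def rlO (l : List ℕ) : W :=
  if h : rl l ∈ Cfsg.Omega (ZMod 3) ⇑QF then ⟨rl l, h⟩ else 1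

theorem rlO_coe {e : List ℕ × List ℕ} (he : e ∈ pairs) : (rlO e.2).1 = rl e.2 := by
  obtain ⟨h1, h2, h3⟩ := pairs_ok e he
  rw [rlO, dif_pos (rl_mem e.2 h1 h2 h3)]

/-- the pairs (generator, product of reflections) -/
def S : Set (Cfsg.Spor.Fi22 × W) := {p | ∃ e ∈ pairs, p = (wp F22.s e.1, rlO e.2)}

theorem pairs_fst : pairs.map Prod.fst = F22P14080.Sw := by decide

theorem L_eq_closure : L = Subgroup.closure (Prod.fst '' S) := by
  unfold L Hs
  congr 1
  ext g
  constructor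
  · rintro ⟨w, hw, rfl⟩
    rw [← pairs_fst, List.mem_map] at hw
    obtain ⟨e, he, rfl⟩ := hw
    exact ⟨_, ⟨e, he, rfl⟩, rfl⟩
  · rintro ⟨_, ⟨e, he, rfl⟩, rfl⟩
    exact ⟨e.1, by rw [← pairs_fst]; exact List.mem_map_of_mem he, rfl⟩

theorem hSw : ∀ e ∈ pairs, ∀ k ∈ e.1, k < F22P3510.P.A := by decide

theorem chk_spec {e : List ℕ × List ℕ} (he : e ∈ pairs) {q : ℕ} (hq : q ∈ I) :
    cdT.get (F22P3510.P.walk e.1.reverse q) ≠ 0 ∧
    (e.2.foldr rfc (Nat.pred (cdT.get q)) = Nat.pred (cdT.get (F22P3510.P.walk e.1.reverse q)) ∨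
     e.2.foldr rfc (Nat.pred (cdT.get q)) =
      ngc (Nat.pred (cdT.get (F22P3510.P.walk e.1.reverse q)))) := by
  have h3 := allB_iff.mp (chk_all e he) q hq.1
  simp only [chk, force_eq] at h3
  have f1 : Nat.beq (cdT.get q) 0 = false := by
    rw [← Bool.not_eq_true, beq_iff']; exact hq.2
  rw [f1, bsel_false] at h3
  by_cases f2 : cdT.get (F22P3510.P.walk e.1.reverse q) = 0
  · rw [f2] at h3
    simp at h3
  · have f3 : Nat.beq (cdT.get (F22P3510.P.walk e.1.reverse q)) 0 = false := by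
      rw [← Bool.not_eq_true, beq_iff']; exact f2
    rw [f3, bsel_false, orB_iff, beq_iff', beq_iff'] at h3
    exact ⟨f2, h3⟩

section Rho

variable {ρ : Cfsg.Spor.Fi22 →* Equiv.Perm ℕ}
  (hρ : ∀ k < F22P3510.P.A, ρ (F22.s k) = PTab.sig F22M.good3510 k)

include hρ

theorem gen_I {e : List ℕ × List ℕ} (he : e ∈ pairs) {q : ℕ} (hq : q ∈ I) :
    ρ (wp F22.s e.1) q ∈ I := by
  refine ⟨PTab.rho_lt F22M.good3510 hρ F22.pre_top _ q hq.1, ?_⟩
  rw [PTab.rho_wp_apply F22M.good3510 hρ e.1 (hSw e he) q hq.1]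
  exact (chk_spec he hq).1

theorem gen_inv : ∀ e ∈ pairs, (wp F22.s e.1)⁻¹ = wp F22.s e.1 := by
  intro e he
  have h : e.1 = [e.1.headD 0] := by
    revert e; decide
  generalize e.1.headD 0 = l at h
  have hl := h
  rw [hl, wp_cons, wp_nil, mul_one]
  exact inv_eq_of_mul_eq_one_left (F22.s_inv l)

theorem hI : ∀ h ∈ L, ∀ q ∈ I, ρ h q ∈ I := by
  have key : ∀ h ∈ L, (∀ q ∈ I, ρ h q ∈ I) ∧ (∀ q ∈ I, ρ h⁻¹ q ∈ I) := by
    intro h hh
    rw [L_eq_closure] at hh
    induction hh using Subgroup.closure_induction with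
    | mem x hx =>
      obtain ⟨_, ⟨e, he, rfl⟩, rfl⟩ := hx
      refine ⟨fun q hq => gen_I hρ he hq, fun q hq => ?_⟩
      show ρ (wp F22.s e.1)⁻¹ q ∈ I
      rw [gen_inv hρ e he]
      exact gen_I hρ he hq
    | one => simp
    | mul a b _ _ ha hb =>
      refine ⟨fun q hq => ?_, fun q hq => ?_⟩
      · rw [map_mul, Equiv.Perm.mul_apply]; exact ha.1 _ (hb.1 q hq)
      · rw [_root_.mul_inv_rev, map_mul, Equiv.Perm.mul_apply]; exact hb.2 _ (ha.2 q hq)
    | inv a _ ha => exact ⟨ha.2, by rw [inv_inv]; exact ha.1⟩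
  exact fun h hh => (key h hh).1

theorem hS : ∀ p ∈ S, Comp (F := ZMod 3) ρ mv I β p.1 p.2 := by
  rintro _ ⟨e, he, rfl⟩ q hq
  obtain ⟨-, h3⟩ := chk_spec he hq
  show ∃ c : ZMod 3, c ≠ 0 ∧ (rlO e.2).1.1.1 *ᵥ β q = c • β (ρ (wp F22.s e.1) q)
  rw [PTab.rho_wp_apply F22M.good3510 hρ e.1 (hSw e he) q hq.1, rlO_coe he, rl_mulVec, β,
    ← dec_foldr, β]
  rcases h3 with h | h
  · exact ⟨1, one_ne_zero, by rw [h, one_smul]⟩
  · exact ⟨-1, by decide, by rw [h, dec_ngc, neg_smul, one_smul]⟩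

end Rho

theorem gpt_I {l : ℕ} (hl : l < 8) : gpt l ∈ I ∧ β (gpt l) = dec (gv l) := by
  have h := gpt_cd l hl
  refine ⟨⟨?_, by rw [h]; exact Nat.succ_ne_zero _⟩, by rw [β, h]; rfl⟩
  interval_cases l <;> decide

theorem central_of_scalar (u : W) (c : ZMod 3) (h : u.1.1.1 = c • 1) : u ∈ Subgroup.center W := by
  rw [Subgroup.mem_center_iff]
  intro g
  apply Subtype.ext
  apply Subtype.ext
  apply Units.ext
  show g.1.1.1 * u.1.1.1 = u.1.1.1 * g.1.1.1
  rw [h]
  simp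

theorem Z1 : ∀ u : W, (∀ q ∈ I, ∃ c : ZMod 3, c ≠ 0 ∧ mv u (β q) = c • β q) →
    u ∈ Subgroup.center W := by
  intro u hu
  have h1 : ∀ l < 8, ∃ c : ZMod 3, mv u (dec (gv l)) = c • dec (gv l) := by
    intro l hl
    obtain ⟨c, -, e⟩ := hu _ (gpt_I hl).1
    rw [(gpt_I hl).2] at e
    exact ⟨c, e⟩
  choose! c hc using h1
  have h2 : ∀ e ∈ edges, c e.1 = c e.2 := by
    intro e he
    have hlt : e.1 < 8 ∧ e.2 < 8 := by
      revert e; decide
    obtain ⟨n0, lt, a, b, e1, e2⟩ := edges_ok e he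
    obtain ⟨c'', -, e3⟩ := hu _ ⟨lt, n0⟩
    apply e2 (c e.1) (c e.2) c''
    rw [β] at e3
    rw [← e3, e1]
    unfold mv
    rw [Matrix.mulVec_add, Matrix.mulVec_smul, Matrix.mulVec_smul]
    have g1 := hc e.1 hlt.1
    have g2 := hc e.2 hlt.2
    unfold mv at g1 g2
    rw [g1, g2, smul_smul, smul_smul]
  have a01 := h2 (0, 1) (by decide)
  have a12 := h2 (1, 2) (by decide)
  have a13 := h2 (1, 3) (by decide)
  have a24 := h2 (2, 4) (by decide)
  have a47 := h2 (4, 7) (by decide)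
  have a36 := h2 (3, 6) (by decide)
  have a05 := h2 (0, 5) (by decide)
  simp only at a01 a12 a13 a24 a47 a36 a05
  have h3 : ∀ l < 8, c l = c 0 := by
    intro l hl
    interval_cases l
    · rfl
    · exact a01.symm
    · rw [← a12, ← a01]
    · rw [← a13, ← a01]
    · rw [← a24, ← a12, ← a01]
    · exact a05.symm
    · rw [← a36, ← a13, ← a01]
    · rw [← a47, ← a24, ← a12, ← a01]
  apply central_of_scalar u (c 0)
  apply Matrix.ext_of_mulVec_single
  intro j
  rw [Matrix.smul_mulVec, Matrix.one_mulVec, span_ok j, Matrix.mulVec_sum, Finset.smul_sum]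
  apply Finset.sum_congr rfl
  intro l hl
  have hl8 : l < 8 := Finset.mem_range.mp hl
  have g1 := hc l hl8
  unfold mv at g1
  rw [Matrix.mulVec_smul, g1, h3 l hl8, smul_comm]

theorem Z2 : ∀ u ∈ Subgroup.center W, ∀ q ∈ I, ∃ c : ZMod 3, c ≠ 0 ∧ mv u (β q) = c • β q := by
  intro u hu q _
  have h := center_Omega_scalar QF nondeg
    (e := Pi.single (Sum.inr (Sum.inl 0)) 1) (f := Pi.single (Sum.inr (Sum.inr 0)) 1)
    (w0 := Pi.single (Sum.inl ()) 1)
    (by rw [oddQF_apply]; simp)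
    (by rw [oddQF_apply]; simp)
    (by rw [oddQF_polar_single_inl]; simp)
    (by rw [oddQF_apply]; simp)
    (by rw [oddQF_polar_single_inl]; simp)
    (by rw [oddQF_polar_single_inr]; simp) u hu
  rcases h with h | h
  · exact ⟨1, one_ne_zero, by unfold mv; rw [h, Matrix.one_mulVec, one_smul]⟩
  · exact ⟨-1, by decide, by unfold mv; rw [h, Matrix.neg_mulVec, Matrix.one_mulVec, neg_smul, one_smul]⟩

theorem chi_spec {q : ℕ} (hq : q ∈ I) : ivT.get (Nat.pred (cdT.get q)) = Nat.succ q ∧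
    ivT.get (ngc (Nat.pred (cdT.get q))) = 0 ∧
    enc (dec (Nat.pred (cdT.get q))) = Nat.pred (cdT.get q) := by
  have h3 := allB_iff.mp chi_all q hq.1
  simp only [chi, force_eq] at h3
  have f1 : Nat.beq (cdT.get q) 0 = false := by
    rw [← Bool.not_eq_true, beq_iff']; exact hq.2
  rw [f1, bsel_false, andB_iff, andB_iff, beq_iff', beq_iff', beq_iff'] at h3
  exact h3

theorem inj : ∀ q ∈ I, ∀ q' ∈ I, ∀ c : ZMod 3, c ≠ 0 → β q = c • β q' → q = q' := by
  intro q hq q' hq' c hc h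
  obtain ⟨a1, -, a3⟩ := chi_spec hq
  obtain ⟨b1, b2, b3⟩ := chi_spec hq'
  have hc2 : c = 1 ∨ c = -1 := by
    clear h
    revert c; decide
  unfold β at h
  rcases hc2 with rfl | rfl
  · rw [one_smul] at h
    have e : Nat.pred (cdT.get q) = Nat.pred (cdT.get q') := by rw [← a3, ← b3, h]
    rw [e, b1] at a1
    exact (Nat.succ.inj a1).symm
  · rw [neg_smul, one_smul, ← dec_ngc] at h
    have e : Nat.pred (cdT.get q) = ngc (Nat.pred (cdT.get q')) := by
      rw [← a3, h, dec_ngc, ngc, force_eq]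
    rw [e, b2] at a1
    exact absurd a1.symm (Nat.succ_ne_zero _)

/-- paths from the base point to the points of the generators -/
def pth : ℕ → List ℕ
  | 0 => [5, 0, 8, 5]
  | 1 => [5, 0, 1, 8, 5, 0]
  | 2 => [5, 0, 1, 2, 8, 5, 0, 1]
  | 3 => [5, 0, 1, 3, 8, 5, 0, 1]
  | 4 => [5, 0, 1, 2, 4, 8, 5, 0, 1, 2]
  | 5 => [5, 8]
  | 6 => [5, 0, 1, 3, 6, 8, 5, 0, 1, 3]
  | 7 => [5, 0, 1, 2, 4, 7, 8, 5, 0, 1, 2, 4]
  | _ => []

theorem pth_spec : ∀ l < 9, (∀ k ∈ (pth l).reverse, k < F22P3510.P.A) ∧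
    F22P3510.P.walk (pth l).reverse.reverse 0 = gpt l ∧
    (∀ k ∈ [l], k < F22P14080.P.A) ∧ (∀ k ∈ (pth l).reverse ++ 8 :: pth l, k < F22P14080.P.A) ∧
    allL (fun b => Nat.beq (F22P14080.P.walk [l].reverse b)
      (F22P14080.P.walk ((pth l).reverse ++ 8 :: pth l).reverse b)) F22P14080.base = true := by
  decide +kernel

theorem central_of_gens {G : Type*} [Group G] {s : ℕ → G} {A : ℕ} (htop : pre s A = ⊤) (z : G)
    (h : ∀ l < A, z * s l = s l * z) : ∀ g, g * z = z * g := by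
  intro g
  have hg : g ∈ pre s A := by rw [htop]; trivial
  unfold pre at hg
  induction hg using Subgroup.closure_induction with
  | mem x hx =>
    obtain ⟨l, hl, rfl⟩ := hx
    exact (h l hl).symm
  | one => simp
  | mul x y _ _ hx hy => rw [mul_assoc, hy, ← mul_assoc, hx, mul_assoc]
  | inv x _ hx =>
    calc x⁻¹ * z = x⁻¹ * (z * x) * x⁻¹ := by group
      _ = x⁻¹ * (x * z) * x⁻¹ := by rw [hx]
      _ = z * x⁻¹ := by group

/-- the isomorphism -/
theorem main : Nonempty (L ≃* T) := by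
  have hfinG := F22M.fin
  obtain ⟨ρ, hρ⟩ := F22.exists_rho (p := F22P3510.P) rfl F22M.good3510
  obtain ⟨hfix, hidx, hinj, hlt, t1, t2, m2⟩ := F22M.act3510 hρ
  obtain ⟨Φ, hΦ⟩ := exists_hom_of_equivariant (F := ZMod 3) (ρ := ρ) (mv := mv) (I := I) (β := β)
    mv_mul mv_one mv_smul S L L_eq_closure (hI hρ) (hS hρ) Z1 Z2 inj
  have hstab : ∀ g, ρ g 0 = 0 → g ∈ F22M.H := by
    intro g hg
    have h1 : ev hfix (g : _ ⧸ F22M.H) = ev hfix ((1 : Cfsg.Spor.Fi22) : _ ⧸ F22M.H) := by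
      rw [ev_mk, ev_mk, hg]; simp
    have h3 := QuotientGroup.eq.mp (hinj h1).symm
    simpa using h3
  have comm_of_fix : ∀ (k : Cfsg.Spor.Fi22) (l : ℕ), l < 9 → ρ k (gpt l) = gpt l →
      k * F22.s l = F22.s l * k := by
    intro k l hl hk
    obtain ⟨p1, p2, p3, p4, p5⟩ := pth_spec l hl
    have e1 : ρ (wp F22.s (pth l).reverse) 0 = gpt l := by
      rw [PTab.rho_wp_apply F22M.good3510 hρ _ p1 0 (by decide), p2]
    have e2 : F22.s l = wp F22.s (pth l).reverse * F22.s 8 * (wp F22.s (pth l).reverse)⁻¹ := by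
      have := F22M.word_eq [l] ((pth l).reverse ++ 8 :: pth l) p3 p4 p5
      rw [wp_append, wp_cons, wp_cons, wp_nil, mul_one] at this
      rw [this, wp_reverse _ F22.s_inv, inv_inv, mul_assoc]
    generalize wp F22.s (pth l).reverse = g at e1 e2
    have e3 : g⁻¹ * k * g ∈ F22M.H := hstab _ (by
      rw [map_mul, map_mul, Equiv.Perm.mul_apply, Equiv.Perm.mul_apply, e1, hk, ← e1,
        ← Equiv.Perm.mul_apply, ← map_mul]; simp)
    have e4 := F22M.H_comm _ e3
    rw [e2]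
    calc k * (g * F22.s 8 * g⁻¹) = g * ((g⁻¹ * k * g) * F22.s 8) * g⁻¹ := by group
      _ = g * (F22.s 8 * (g⁻¹ * k * g)) * g⁻¹ := by rw [e4]
      _ = _ := by group
  have kfix : ∀ k : L, Φ k = 1 → ∀ l < 8, k.1 * F22.s l = F22.s l * k.1 := by
    intro k hk l hl
    exact comm_of_fix k.1 l (by omega) ((hΦ k).mp hk (gpt l) (gpt_I hl).1)
  have k0 : ∀ k : L, Φ k = 1 → ρ k.1 0 = 0 := by
    intro k hk
    have hy : ρ k.1 0 < F22P3510.P.N := PTab.rho_lt F22M.good3510 hρ F22.pre_top k.1 0 (by decide)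
    have h6 : allL (fun l => Nat.beq (F22P3510.P.pe (ρ k.1 0) l) (ρ k.1 0)) [0, 1, 2, 3, 4, 6, 7]
        = true := by
      rw [allL_iff]
      intro l hl
      have hl8 : l < 8 := by
        simp only [List.mem_cons, List.not_mem_nil, or_false] at hl
        omega
      have hl9 : l < F22P3510.P.A := by
        show l < 9
        omega
      rw [beq_iff', ← PTab.rho_s F22M.good3510 hρ hl9 hy,
        ← Equiv.Perm.mul_apply, ← map_mul, ← kfix k hk l hl8, map_mul,
        Equiv.Perm.mul_apply, PTab.rho_s F22M.good3510 hρ hl9 (by decide), fix0 l hl]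
    have h7 := allB_iff.mp fix7 _ hy
    simp only [h6, bsel_true, orB_iff, beq_iff'] at h7
    rcases h7 with h7 | h7
    · exact h7
    · exact absurd h7 (by simp)
  have hker : ∀ k : L, Φ k = 1 → k = 1 := by
    intro k hk
    have h8 : k.1 * F22.s 8 = F22.s 8 * k.1 := F22M.H_comm _ (hstab _ (k0 k hk))
    have hz := F22M.center_triv _ (central_of_gens F22.pre_top k.1 (by
      intro l hl
      by_cases h : l = 8
      · subst h; exact h8
      · exact kfix _ hk l (by omega)))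
    exact Subtype.ext hz
  have hinjΦ : Function.Injective Φ := (injective_iff_map_eq_one Φ).mpr hker
  have : Finite T := Nat.finite_of_card_ne_zero (by rw [card_T]; norm_num)
  have hbij : Function.Bijective Φ :=
    hinjΦ.bijective_of_nat_card_le (by rw [card_T, card_L])
  exact ⟨MulEquiv.ofBijective Φ hbij⟩

end Cfsg.Agent.Lib.Helper40.O7
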