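/-
helper40: coded vectors of the orthogonal space of dimension seven over the field with three elements,
products of reflections.
-/
import Cfsg.Agent.Lib.Helper44.Adjust
import Cfsg.Agent.Lib.Helper44.StdForms
import Cfsg.Agent.Lib.Helper44.Transport
import Cfsg.Agent.Lib.Helper5.OmegaCenterMat
import Cfsg.Agent.Lib.Helper40.PresEnum

set_option autoImplicit false

namespace Cfsg.Agent.Lib.Helper40.O7

open Matrix QuadraticMap Cfsg.Agent.Lib.Helper44 Cfsg.Agent.Lib.Helper5 Cfsg.Agent.Lib.Helper40.PE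

/-- the index set of the coordinates -/
abbrev I7 : Type := Unit ⊕ (Fin 3 ⊕ Fin 3)

/-- the vectors -/
abbrev V7 : Type := I7 → ZMod 3

/-- the quadratic form -/
noncomputable abbrev QF : QuadraticForm (ZMod 3) V7 := oddQF 3 (ZMod 3)

/-- numbering of the coordinates -/
def idx : I7 → ℕ
  | .inl _ => 0
  | .inr (.inl i) => 1 + i.val
  | .inr (.inr i) => 4 + i.val

/-- decoding of vectors -/
def dec (n : ℕ) : V7 := fun i => ((n / 3 ^ idx i % 3 : ℕ) : ZMod 3)

/-- coding of vectors -/
def enc (v : V7) : ℕ :=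
  (v (.inl ())).val + 3 * ((v (.inr (.inl 0))).val + 3 * ((v (.inr (.inl 1))).val +
    3 * ((v (.inr (.inl 2))).val + 3 * ((v (.inr (.inr 0))).val + 3 * ((v (.inr (.inr 1))).val +
    3 * (v (.inr (.inr 2))).val)))))

/-- a vector with given coordinates -/
def mkV (a0 a1 a2 a3 a4 a5 a6 : ZMod 3) : V7
  | .inl _ => a0
  | .inr (.inl 0) => a1
  | .inr (.inl 1) => a2
  | .inr (.inl 2) => a3
  | .inr (.inr 0) => a4
  | .inr (.inr 1) => a5
  | .inr (.inr 2) => a6

theorem dec_enc (v : V7) : dec (enc v) = v := by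
  have key : ∀ a0 a1 a2 a3 a4 a5 a6 : ZMod 3,
      dec (enc (mkV a0 a1 a2 a3 a4 a5 a6)) = mkV a0 a1 a2 a3 a4 a5 a6 := by
    decide +kernel
  have e : v = mkV (v (.inl ())) (v (.inr (.inl 0))) (v (.inr (.inl 1))) (v (.inr (.inl 2)))
      (v (.inr (.inr 0))) (v (.inr (.inr 1))) (v (.inr (.inr 2))) := by
    funext i
    rcases i with i | i | i
    · rfl
    · fin_cases i <;> rfl
    · fin_cases i <;> rfl
  rw [e]; exact key _ _ _ _ _ _ _

/-- the value of the quadratic form -/
def qv (x : V7) : ZMod 3 := Cfsg.quadFormOdd 3 (ZMod 3) x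

/-- the polar form -/
def pol (x y : V7) : ZMod 3 := 2 * x (.inl ()) * y (.inl ()) +
  ∑ i : Fin 3, (x (.inr (.inl i)) * y (.inr (.inr i)) + y (.inr (.inl i)) * x (.inr (.inr i)))

theorem QF_eq (x : V7) : QF x = qv x := by
  rw [qv, ← oddQF_coe]

theorem polar_eq (x y : V7) : polar QF x y = pol x y := oddQF_polar 3 (ZMod 3) x y

theorem inv_eq (a : ZMod 3) : a⁻¹ = a := by
  by_cases h : a = 0
  · rw [h, _root_.inv_zero]
  · have h2 : a * a = 1 := by revert a; decide
    exact inv_eq_of_mul_eq_one_left h2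

/-- the reflection with coded centre -/
def rf (n : ℕ) (x : V7) : V7 := x - (qv (dec n) * pol (dec n) x) • dec n

theorem reflElt_mulVec (n : ℕ) (x : V7) :
    ((reflElt QF (dec n) : GL I7 (ZMod 3)) : Matrix I7 I7 (ZMod 3)) *ᵥ x = rf n x := by
  rw [← isoEquiv_apply, isoEquiv_reflElt]
  show refl QF (dec n) x = _
  rw [refl_apply, QF_eq, polar_eq, inv_eq, rf]

/-- products of reflections -/
noncomputable def rl (l : List ℕ) : ↥(Cfsg.isometryGroup (ZMod 3) ⇑QF) :=
  (l.map fun n => reflElt QF (dec n)).prod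

theorem rl_mulVec (l : List ℕ) (x : V7) :
    ((rl l : GL I7 (ZMod 3)) : Matrix I7 I7 (ZMod 3)) *ᵥ x = l.foldr rf x := by
  induction l with
  | nil => simp [rl]
  | cons n l ih =>
    have e : rl (n :: l) = reflElt QF (dec n) * rl l := by simp [rl]
    rw [e, Subgroup.coe_mul, Units.val_mul, ← Matrix.mulVec_mulVec, ih, reflElt_mulVec,
      List.foldr_cons]

theorem nondeg : (polarBilin QF).Nondegenerate := oddQF_nondeg 3 (ZMod 3) (by decide)

theorem rl_mem (l : List ℕ) (h0 : ∀ n ∈ l, qv (dec n) ≠ 0) (he : Even l.length)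
    (hs : (l.map fun n => qv (dec n)).prod = 1) : rl l ∈ Cfsg.Omega (ZMod 3) ⇑QF := by
  rw [mem_Omega_iff]
  have e : isoEquiv QF (rl l) = ((l.map dec).map (reflO QF)).prod := by
    rw [rl, map_list_prod, List.map_map, List.map_map]
    congr 1
    apply List.map_congr_left
    intro n _
    exact isoEquiv_reflElt QF (dec n)
  rw [e, prod_reflO_mem_commutator_iff_all nondeg (Or.inl ⟨2, by decide, by decide⟩)]
  · refine ⟨by simpa using he, ?_⟩
    have : ((l.map dec).map QF).prod = 1 := by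
      rw [← hs, List.map_map]
      congr 1
      apply List.map_congr_left
      intro n _
      exact QF_eq _
    rw [this]; exact IsSquare.one
  · intro v hv
    obtain ⟨n, hn, rfl⟩ := List.mem_map.mp hv
    rw [QF_eq]; exact h0 n hn

/-- reflections on codes -/
noncomputable def rfc (n m : ℕ) : ℕ := force m fun m' => enc (rf n (dec m'))

theorem dec_rfc (n m : ℕ) : dec (rfc n m) = rf n (dec m) := by
  rw [rfc, force_eq, dec_enc]

theorem dec_foldr (l : List ℕ) (m : ℕ) : dec (l.foldr rfc m) = l.foldr rf (dec m) := by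
  induction l with
  | nil => rfl
  | cons n l ih => rw [List.foldr_cons, List.foldr_cons, dec_rfc, ih]

/-- the negative on codes -/
noncomputable def ngc (m : ℕ) : ℕ := force m fun m' => enc (-dec m')

theorem dec_ngc (m : ℕ) : dec (ngc m) = -dec m := by
  rw [ngc, force_eq, dec_enc]

end Cfsg.Agent.Lib.Helper40.O7
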